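import Cfsg.Agent.Helper28.O73O.OrbData

set_option autoImplicit false

namespace Cfsg.Agent.Helper28.O73O

theorem orb1_0 : Cfsg.Agent.Helper28.ptChunk (Cfsg.Agent.Helper28.orbPt Cfsg.Agent.Helper28.F22Q1.T 3159 Cfsg.Agent.Helper28.F22Q1.subL 288 ov1 op1 otp1 otw1) 288 256 0 = true := by decide +kernel

theorem orb1_1 : Cfsg.Agent.Helper28.ptChunk (Cfsg.Agent.Helper28.orbPt Cfsg.Agent.Helper28.F22Q1.T 3159 Cfsg.Agent.Helper28.F22Q1.subL 288 ov1 op1 otp1 otw1) 288 256 1 = true := by decide +kernel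

end Cfsg.Agent.Helper28.O73O
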