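import Cfsg.Agent.Helper28.O73O.OrbData

set_option autoImplicit false

namespace Cfsg.Agent.Helper28.O73O

theorem orb3_0 : Cfsg.Agent.Helper28.ptChunk (Cfsg.Agent.Helper28.orbPt Cfsg.Agent.Helper28.F22Q1.T 3159 Cfsg.Agent.Helper28.F22Q1.subL 2240 ov3 op3 otp3 otw3) 2240 256 0 = true := by decide +kernel

theorem orb3_1 : Cfsg.Agent.Helper28.ptChunk (Cfsg.Agent.Helper28.orbPt Cfsg.Agent.Helper28.F22Q1.T 3159 Cfsg.Agent.Helper28.F22Q1.subL 2240 ov3 op3 otp3 otw3) 2240 256 1 = true := by decide +kernel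

theorem orb3_2 : Cfsg.Agent.Helper28.ptChunk (Cfsg.Agent.Helper28.orbPt Cfsg.Agent.Helper28.F22Q1.T 3159 Cfsg.Agent.Helper28.F22Q1.subL 2240 ov3 op3 otp3 otw3) 2240 256 2 = true := by decide +kernel

theorem orb3_3 : Cfsg.Agent.Helper28.ptChunk (Cfsg.Agent.Helper28.orbPt Cfsg.Agent.Helper28.F22Q1.T 3159 Cfsg.Agent.Helper28.F22Q1.subL 2240 ov3 op3 otp3 otw3) 2240 256 3 = true := by decide +kernel

theorem orb3_4 : Cfsg.Agent.Helper28.ptChunk (Cfsg.Agent.Helper28.orbPt Cfsg.Agent.Helper28.F22Q1.T 3159 Cfsg.Agent.Helper28.F22Q1.subL 2240 ov3 op3 otp3 otw3) 2240 256 4 = true := by decide +kernel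

theorem orb3_5 : Cfsg.Agent.Helper28.ptChunk (Cfsg.Agent.Helper28.orbPt Cfsg.Agent.Helper28.F22Q1.T 3159 Cfsg.Agent.Helper28.F22Q1.subL 2240 ov3 op3 otp3 otw3) 2240 256 5 = true := by decide +kernel

theorem orb3_6 : Cfsg.Agent.Helper28.ptChunk (Cfsg.Agent.Helper28.orbPt Cfsg.Agent.Helper28.F22Q1.T 3159 Cfsg.Agent.Helper28.F22Q1.subL 2240 ov3 op3 otp3 otw3) 2240 256 6 = true := by decide +kernel

theorem orb3_7 : Cfsg.Agent.Helper28.ptChunk (Cfsg.Agent.Helper28.orbPt Cfsg.Agent.Helper28.F22Q1.T 3159 Cfsg.Agent.Helper28.F22Q1.subL 2240 ov3 op3 otp3 otw3) 2240 256 7 = true := by decide +kernel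

end Cfsg.Agent.Helper28.O73O
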