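import Cfsg.Agent.Helper28.O73O.OrbData

set_option autoImplicit false

namespace Cfsg.Agent.Helper28.O73O

theorem orb3_8 : Cfsg.Agent.Helper28.ptChunk (Cfsg.Agent.Helper28.orbPt Cfsg.Agent.Helper28.F22Q1.T 3159 Cfsg.Agent.Helper28.F22Q1.subL 2240 ov3 op3 otp3 otw3) 2240 256 8 = true := by decide +kernel

end Cfsg.Agent.Helper28.O73O
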