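import Cfsg.Agent.Helper28.TCO
import Cfsg.Agent.Helper28.F22Q1.Cert
import Cfsg.Agent.Helper28.O73O.Orb1_0
import Cfsg.Agent.Helper28.O73O.Orb2_0
import Cfsg.Agent.Helper28.O73O.Orb3_0
import Cfsg.Agent.Helper28.O73O.Orb3_1

set_option autoImplicit false

namespace Cfsg.Agent.Helper28.O73O

theorem orb1_all : ∀ t, t < 288 → Cfsg.Agent.Helper28.orbPt Cfsg.Agent.Helper28.F22Q1.T 3159 Cfsg.Agent.Helper28.F22Q1.subL 288 ov1 op1 otp1 otw1 t = true :=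
  Cfsg.Agent.Helper28.pts_of_chunks _ 288 256 2 (by decide) (by decide)
    (Cfsg.Agent.Helper28.allLt_succ _ 1 (Cfsg.Agent.Helper28.allLt_succ _ 0 (Cfsg.Agent.Helper28.allLt_zero _) orb1_0) orb1_1)

theorem ov1_lt : ov1 0 < 3159 := by decide +kernel

theorem orb2_all : ∀ t, t < 630 → Cfsg.Agent.Helper28.orbPt Cfsg.Agent.Helper28.F22Q1.T 3159 Cfsg.Agent.Helper28.F22Q1.subL 630 ov2 op2 otp2 otw2 t = true :=
  Cfsg.Agent.Helper28.pts_of_chunks _ 630 256 3 (by decide) (by decide)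
    (Cfsg.Agent.Helper28.allLt_succ _ 2 (Cfsg.Agent.Helper28.allLt_succ _ 1 (Cfsg.Agent.Helper28.allLt_succ _ 0 (Cfsg.Agent.Helper28.allLt_zero _) orb2_0) orb2_1) orb2_2)

theorem ov2_lt : ov2 0 < 3159 := by decide +kernel

theorem orb3_all : ∀ t, t < 2240 → Cfsg.Agent.Helper28.orbPt Cfsg.Agent.Helper28.F22Q1.T 3159 Cfsg.Agent.Helper28.F22Q1.subL 2240 ov3 op3 otp3 otw3 t = true :=
  Cfsg.Agent.Helper28.pts_of_chunks _ 2240 256 9 (by decide) (by decide)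
    (Cfsg.Agent.Helper28.allLt_succ _ 8 (Cfsg.Agent.Helper28.allLt_succ _ 7 (Cfsg.Agent.Helper28.allLt_succ _ 6 (Cfsg.Agent.Helper28.allLt_succ _ 5 (Cfsg.Agent.Helper28.allLt_succ _ 4 (Cfsg.Agent.Helper28.allLt_succ _ 3 (Cfsg.Agent.Helper28.allLt_succ _ 2 (Cfsg.Agent.Helper28.allLt_succ _ 1 (Cfsg.Agent.Helper28.allLt_succ _ 0 (Cfsg.Agent.Helper28.allLt_zero _) orb3_0) orb3_1) orb3_2) orb3_3) orb3_4) orb3_5) orb3_6) orb3_7) orb3_8)

theorem ov3_lt : ov3 0 < 3159 := by decide +kernel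

end Cfsg.Agent.Helper28.O73O
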